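import Mathlib
import Cfsg.Agent.Lib.Helper31.Siegel.Defs
import Cfsg.Agent.Lib.Helper32.Siegel.SL2
import Cfsg.Agent.Lib.Helper14.Levi

/-!
# Project OPG (S2414): `PΩ⁺_{2m}(q)`, `m ≥ 4`, is generated by two elements — interface

Notation of project Siegel (`Cfsg.Agent.Lib.Helper31.Siegel`): `Vec n F`, `QF n F`, `B`, `Iso n F`,
`mat`, `IsSingLine`, `T`, `IsSiegel`.  Standard basis `E i = e_i`, `Fv i = f_i`; root elements
* `X_{ij}(c)` : `IsSiegel (E i) (Fv j) c σ`  (`i ≠ j`; the image of the transvection of `SL_n`),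
* `Y_{ij}(c)` : `IsSiegel (E i) (E j) c σ`,
* `Z_{ij}(c)` : `IsSiegel (Fv i) (Fv j) c σ`.
One closed `Prop` per package; paper proofs in the plan note (topic S2414).
-/

set_option autoImplicit false
open scoped Matrix

namespace Cfsg.Agent.Lib.Helper32.OPG

open Cfsg.Agent.Lib.Helper31.Siegel Cfsg.Agent.Lib.Helper32.Siegel

universe u

/-- The standard basis vector `e_i`. -/
abbrev E {n : ℕ} {F : Type u} [Field F] (i : Fin n) : Vec n F := Pi.single (Sum.inl i) 1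

/-- The standard basis vector `f_i`. -/
abbrev Fv {n : ℕ} {F : Type u} [Field F] (i : Fin n) : Vec n F := Pi.single (Sum.inr i) 1

/-- The Levi embedding `SL_n → O⁺_{2n}`, `g ↦ diag(g, g⁻ᵀ)`. -/
noncomputable def L (n : ℕ) (F : Type u) [Field F] :
    Matrix.SpecialLinearGroup (Fin n) F →* ↥(Iso n F) :=
  (Cfsg.Agent.Lib.Helper14.leviIsom n F).comp Matrix.SpecialLinearGroup.toGL

/-- The subgroup `K` contains the root groups `X_{ij}`, `i ≠ j ∈ S`. -/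
def HasX {n : ℕ} {F : Type u} [Field F] (S : Set (Fin n)) (K : Subgroup ↥(Iso n F)) : Prop :=
  ∀ i j : Fin n, i ∈ S → j ∈ S → i ≠ j → ∀ (c : F) (σ : ↥(Iso n F)),
    IsSiegel (E i) (Fv j) c σ → σ ∈ K

/-- The subgroup `K` contains the root groups `Y_{ij}`, `i ≠ j ∈ S`. -/
def HasY {n : ℕ} {F : Type u} [Field F] (S : Set (Fin n)) (K : Subgroup ↥(Iso n F)) : Prop :=
  ∀ i j : Fin n, i ∈ S → j ∈ S → i ≠ j → ∀ (c : F) (σ : ↥(Iso n F)),
    IsSiegel (E i) (E j) c σ → σ ∈ K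

/-- The subgroup `K` contains the root groups `Z_{ij}`, `i ≠ j ∈ S`. -/
def HasZ {n : ℕ} {F : Type u} [Field F] (S : Set (Fin n)) (K : Subgroup ↥(Iso n F)) : Prop :=
  ∀ i j : Fin n, i ∈ S → j ∈ S → i ≠ j → ∀ (c : F) (σ : ↥(Iso n F)),
    IsSiegel (Fv i) (Fv j) c σ → σ ∈ K

/-! ## Basic lemmas -/

section Basic

variable {n : ℕ} {F : Type u} [Field F]

theorem mat_L (g : Matrix.SpecialLinearGroup (Fin n) F) :
    mat (L n F g) = Matrix.fromBlocks (g : Matrix (Fin n) (Fin n) F) 0 0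
      ((g : Matrix (Fin n) (Fin n) F)⁻¹)ᵀ := rfl

theorem B_E (v : Vec n F) (i : Fin n) : B v (E i) = v (Sum.inr i) := by
  classical
  rw [B_apply, Finset.sum_eq_single i]
  · simp
  · intro k _ hk
    simp [hk]
  · intro hi
    exact absurd (Finset.mem_univ i) hi

theorem B_Fv (v : Vec n F) (i : Fin n) : B v (Fv i) = v (Sum.inl i) := by
  classical
  rw [B_apply, Finset.sum_eq_single i]
  · simp
  · intro k _ hk
    simp [hk]
  · intro hi
    exact absurd (Finset.mem_univ i) hi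

theorem Q_E (i : Fin n) : QF n F (E i) = 0 := by
  unfold QF Cfsg.quadFormPlus
  apply Finset.sum_eq_zero
  intro k _
  simp

theorem Q_Fv (i : Fin n) : QF n F (Fv i) = 0 := by
  unfold QF Cfsg.quadFormPlus
  apply Finset.sum_eq_zero
  intro k _
  simp

theorem B_E_E (i j : Fin n) : B (E i : Vec n F) (E j) = 0 := by
  rw [B_E]; simp

theorem B_Fv_Fv (i j : Fin n) : B (Fv i : Vec n F) (Fv j) = 0 := by
  rw [B_Fv]; simp

theorem B_E_Fv (i j : Fin n) : B (E i : Vec n F) (Fv j) = if i = j then 1 else 0 := by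
  rw [B_Fv]
  by_cases h : i = j
  · subst h; simp
  · simp [h, Ne.symm h]

theorem B_Fv_E (i j : Fin n) : B (Fv i : Vec n F) (E j) = if i = j then 1 else 0 := by
  rw [B_E]
  by_cases h : i = j
  · subst h; simp
  · simp [h, Ne.symm h]

/-- two vectors separated by a functional pair are independent. -/
theorem linInd_pair {p r : Vec n F} (x y : Vec n F) (h1 : B p x = 1) (h2 : B r x = 0)
    (h3 : B r y = 1) : LinearIndependent F ![p, r] := by
  rw [LinearIndependent.pair_iff]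
  intro a b hab
  have e1 := congrArg (fun w => B w x) hab
  have e2 := congrArg (fun w => B w y) hab
  simp only [B_add_left, B_smul_left, B_zero_left, h1, h2, h3, mul_one, mul_zero, add_zero] at e1 e2
  refine ⟨e1, ?_⟩
  rw [e1, zero_mul, zero_add] at e2
  exact e2

theorem isSingLine_of {p r : Vec n F} (x y : Vec n F) (h1 : B p x = 1) (h2 : B r x = 0)
    (h3 : B r y = 1) (hp : QF n F p = 0) (hr : QF n F r = 0) (hpr : B p r = 0) :
    IsSingLine p r :=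
  ⟨linInd_pair x y h1 h2 h3, hp, hr, by rw [Q_add, hp, hr, hpr]; ring⟩

theorem isSingLine_E_Fv {i j : Fin n} (hij : i ≠ j) : IsSingLine (E i : Vec n F) (Fv j) :=
  isSingLine_of (Fv i) (E j) (by rw [B_E_Fv, if_pos rfl]) (by rw [B_Fv_Fv])
    (by rw [B_Fv_E, if_pos rfl]) (Q_E i) (Q_Fv j) (by rw [B_E_Fv, if_neg hij])

theorem isSingLine_E_E {i j : Fin n} (hij : i ≠ j) : IsSingLine (E i : Vec n F) (E j) :=
  isSingLine_of (Fv i) (Fv j) (by rw [B_E_Fv, if_pos rfl]) (by rw [B_E_Fv, if_neg (Ne.symm hij)])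
    (by rw [B_E_Fv, if_pos rfl]) (Q_E i) (Q_E j) (B_E_E i j)

theorem isSingLine_Fv_Fv {i j : Fin n} (hij : i ≠ j) : IsSingLine (Fv i : Vec n F) (Fv j) :=
  isSingLine_of (E i) (E j) (by rw [B_Fv_E, if_pos rfl]) (by rw [B_Fv_E, if_neg (Ne.symm hij)])
    (by rw [B_Fv_E, if_pos rfl]) (Q_Fv i) (Q_Fv j) (B_Fv_Fv i j)

/-- the hyperbolic quadruple `(e_a, e_b, f_a, f_b)`. -/
theorem hyp4 {a b : Fin n} (hab : a ≠ b) : Hyp4 (E a : Vec n F) (E b) (Fv a) (Fv b) where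
  ps := by rw [B_E_Fv, if_pos rfl]
  rt := by rw [B_E_Fv, if_pos rfl]
  pt := by rw [B_E_Fv, if_neg hab]
  rs := by rw [B_E_Fv, if_neg (Ne.symm hab)]
  pr := B_E_E a b
  st := B_Fv_Fv a b
  Qp := Q_E a
  Qr := Q_E b
  Qs := Q_Fv a
  Qt := Q_Fv b

end Basic

/-! ## Packages -/

/-- [GENS] (pure `SL`, no geometry) generators of `SL_{N+1}(F)` and a mixing matrix of `SL₂(F)`:
`g₁` is supported on the top left `2 × 2` block, has order dividing `A`; `M` has `M 0 0 = 0`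
and order dividing `B`, `A` and `B` coprime. -/
def PkgGens : Prop :=
  ∀ (F : Type u) [Field F] [Fintype F] (N : ℕ), 3 ≤ N →
    ∃ (g₁ g₂ : Matrix.SpecialLinearGroup (Fin (N + 1)) F)
      (M : Matrix.SpecialLinearGroup (Fin 2) F) (A B : ℕ),
      Nat.Coprime A B ∧
      Subgroup.closure ({g₁, g₂} : Set (Matrix.SpecialLinearGroup (Fin (N + 1)) F)) = ⊤ ∧
      g₁ ^ A = 1 ∧ M ^ B = 1 ∧ (M : Matrix (Fin 2) (Fin 2) F) 0 0 = 0 ∧
      ∀ i : Fin (N + 1), 2 ≤ i.val →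
        (∀ j, (g₁ : Matrix (Fin (N + 1)) (Fin (N + 1)) F) i j =
          (1 : Matrix (Fin (N + 1)) (Fin (N + 1)) F) i j) ∧
        (∀ j, (g₁ : Matrix (Fin (N + 1)) (Fin (N + 1)) F) j i =
          (1 : Matrix (Fin (N + 1)) (Fin (N + 1)) F) j i)

/-- [FIX] if row `i` and column `i` of `g` are standard then `L g` fixes `e_i` and `f_i`. -/
def PkgFix : Prop :=
  ∀ (n : ℕ) (F : Type u) [Field F] (g : Matrix.SpecialLinearGroup (Fin n) F) (i : Fin n),
    (∀ j, (g : Matrix (Fin n) (Fin n) F) i j = (1 : Matrix (Fin n) (Fin n) F) i j) →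
    (∀ j, (g : Matrix (Fin n) (Fin n) F) j i = (1 : Matrix (Fin n) (Fin n) F) j i) →
    mat (L n F g) *ᵥ (E i : Vec n F) = E i ∧ mat (L n F g) *ᵥ (Fv i : Vec n F) = Fv i

/-- [XL] the image of a transvection of `SL_n` is the root element `X_{ij}(c)`. -/
def PkgXL : Prop :=
  ∀ (n : ℕ) (F : Type u) [Field F] (i j : Fin n) (hij : i ≠ j) (c : F),
    IsSiegel (E i) (Fv j) c (L n F (Matrix.SpecialLinearGroup.transvection hij c))

/-- [COMMU] an isometry fixing `p, r, s, t` commutes with the `SL₂` of the quadruple. -/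
def PkgCommU : Prop :=
  ∀ (n : ℕ) (F : Type u) [Field F] (p r s t : Vec n F) (h : Hyp4 p r s t) (σ : ↥(Iso n F)),
    mat σ *ᵥ p = p → mat σ *ᵥ r = r → mat σ *ᵥ s = s → mat σ *ᵥ t = t →
    ∀ M : Matrix.SpecialLinearGroup (Fin 2) F, σ * sl2Hom h M = sl2Hom h M * σ

/-- [SIEGOM] Siegel transvection groups lie in `Ω`. -/
def PkgSiegOm : Prop :=
  ∀ (n : ℕ) (F : Type u) [Field F] [Fintype F], 3 ≤ n → ∀ p r : Vec n F, IsSingLine p r →
    T p r ≤ Cfsg.Omega F (Cfsg.quadFormPlus n F)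

/-- [UOM] the `SL₂` of a hyperbolic quadruple lies in `Ω`. -/
def PkgUOm : Prop :=
  ∀ (n : ℕ) (F : Type u) [Field F] [Fintype F], 3 ≤ n → ∀ (p r s t : Vec n F)
    (h : Hyp4 p r s t) (M : Matrix.SpecialLinearGroup (Fin 2) F),
    sl2Hom h M ∈ Cfsg.Omega F (Cfsg.quadFormPlus n F)

/-- [YZ] the mixing element `u = sl2Hom (e_a, e_b, f_a, f_b) M`, `M 0 0 = 0`, turns `X` root
groups into a `Y` and a `Z` root group. -/
def PkgYZ : Prop :=
  ∀ (n : ℕ) (F : Type u) [Field F] (a b : Fin n) (hab : a ≠ b)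
    (M : Matrix.SpecialLinearGroup (Fin 2) F), (M : Matrix (Fin 2) (Fin 2) F) 0 0 = 0 →
    ∀ K : Subgroup ↥(Iso n F), HasX Set.univ K → sl2Hom (hyp4 (F := F) hab) M ∈ K →
    ∀ i : Fin n, i ≠ a → i ≠ b →
      (∀ (c : F) (σ : ↥(Iso n F)), IsSiegel (E i) (E b) c σ → σ ∈ K) ∧
      (∀ (c : F) (σ : ↥(Iso n F)), IsSiegel (Fv b) (Fv i) c σ → σ ∈ K)

/-- [SPREAD] with all `X` root groups, one `Y` (resp. `Z`) root group gives all of them. -/
def PkgSpread : Prop :=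
  ∀ (n : ℕ) (F : Type u) [Field F] (K : Subgroup ↥(Iso n F)), HasX Set.univ K →
    ∀ i₁ j₁ : Fin n, i₁ ≠ j₁ →
      ((∀ (c : F) (σ : ↥(Iso n F)), IsSiegel (E i₁) (E j₁) c σ → σ ∈ K) → HasY Set.univ K) ∧
      ((∀ (c : F) (σ : ↥(Iso n F)), IsSiegel (Fv i₁) (Fv j₁) c σ → σ ∈ K) → HasZ Set.univ K)

/-- [REDX] row reduction, `x`-part: a non-zero vector supported on `S` is moved by `K` to a
vector with `x`-part `e_{i₀}`, still supported on `S`. -/
def PkgRedX : Prop :=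
  ∀ (n : ℕ) (F : Type u) [Field F] (S : Set (Fin n)) (i₀ j₀ : Fin n), i₀ ∈ S → j₀ ∈ S → i₀ ≠ j₀ →
    ∀ K : Subgroup ↥(Iso n F), HasX S K → HasY S K →
    ∀ p : Vec n F, p ≠ 0 → (∀ i, i ∉ S → p (Sum.inl i) = 0 ∧ p (Sum.inr i) = 0) →
    ∃ g ∈ K, (∀ i, (mat g *ᵥ p) (Sum.inl i) = if i = i₀ then 1 else 0) ∧
      (∀ i, i ∉ S → (mat g *ᵥ p) (Sum.inr i) = 0)

/-- [REDY] row reduction, `y`-part: a singular vector with `x`-part `e_{i₀}` and `y`-part
supported on `S` is moved by `K` to `e_{i₀}`. -/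
def PkgRedY : Prop :=
  ∀ (n : ℕ) (F : Type u) [Field F] (S : Set (Fin n)) (i₀ : Fin n), i₀ ∈ S →
    ∀ K : Subgroup ↥(Iso n F), HasZ S K →
    ∀ p : Vec n F, QF n F p = 0 → (∀ i, p (Sum.inl i) = if i = i₀ then 1 else 0) →
    (∀ i, i ∉ S → p (Sum.inr i) = 0) →
    ∃ g ∈ K, mat g *ᵥ p = E i₀

/-- [RED] = [REDX] + [REDY]: a non-zero singular vector supported on `S` is moved to `e_{i₀}`. -/
def PkgRed : Prop :=
  ∀ (n : ℕ) (F : Type u) [Field F] (S : Set (Fin n)) (i₀ j₀ : Fin n), i₀ ∈ S → j₀ ∈ S → i₀ ≠ j₀ →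
    ∀ K : Subgroup ↥(Iso n F), HasX S K → HasY S K → HasZ S K →
    ∀ p : Vec n F, p ≠ 0 → QF n F p = 0 →
    (∀ i, i ∉ S → p (Sum.inl i) = 0 ∧ p (Sum.inr i) = 0) →
    ∃ g ∈ K, mat g *ᵥ p = E i₀

/-- [LINE] a subgroup containing all standard root groups contains every `T(ℓ)`. -/
def PkgLine : Prop :=
  ∀ (n : ℕ) (F : Type u) [Field F], 3 ≤ n → ∀ K : Subgroup ↥(Iso n F),
    HasX Set.univ K → HasY Set.univ K → HasZ Set.univ K →
    ∀ p r : Vec n F, IsSingLine p r → T p r ≤ K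

/-- [BRIDGE] `Ω` is generated by the Siegel transvection groups. -/
def PkgBridge : Prop :=
  ∀ (n : ℕ) (F : Type u) [Field F] [Fintype F], 3 ≤ n → ∀ K : Subgroup ↥(Iso n F),
    (∀ p r : Vec n F, IsSingLine p r → T p r ≤ K) →
    Cfsg.Omega F (Cfsg.quadFormPlus n F) ≤ K

end Cfsg.Agent.Lib.Helper32.OPG
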