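import Mathlib
import Cfsg.Agent.Lib.Helper32.OPG.Defs
import Cfsg.Agent.Lib.Helper67.Siegel.Param
import Cfsg.Agent.Lib.Helper21.Siegel.Conj
import Cfsg.Agent.Lib.Helper34.Siegel.Rebase

/-!
# Project OPG (S2414), package [LINE]

A subgroup containing all standard root groups contains every Siegel transvection group.
-/

set_option autoImplicit false
open scoped Matrix

namespace Cfsg.Agent.Lib.Helper32.OPG

open Cfsg.Agent.Lib.Helper31.Siegel Cfsg.Agent.Lib.Helper32.Siegel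

universe u

/-- transport of `T ≤ K` along conjugation by an element of `K`. -/
theorem le_of_conjBy_le {G : Type*} [Group G] (K A : Subgroup G) (g : G) (hg : g ∈ K)
    (h : Cfsg.conjBy A g ≤ K) : A ≤ K := by
  intro σ hσ
  have h1 : g * σ * g⁻¹ ∈ Cfsg.conjBy A g := ⟨σ, hσ, rfl⟩
  have h2 := h h1
  have e : σ = g⁻¹ * (g * σ * g⁻¹) * g := by group
  rw [e]
  exact K.mul_mem (K.mul_mem (K.inv_mem hg) h2) hg

/-- **[LINE]** (from [RED]). -/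
theorem pkgLine_of (hR : PkgRed.{u}) : PkgLine.{u} := by
  intro n F _ hn K hX hY hZ p r hpr
  obtain ⟨i0, hi0⟩ : ∃ i0 : Fin n, i0.val = 0 := ⟨⟨0, by omega⟩, rfl⟩
  obtain ⟨i1, hi1⟩ : ∃ i1 : Fin n, i1.val = 1 := ⟨⟨1, by omega⟩, rfl⟩
  obtain ⟨i2, hi2⟩ : ∃ i2 : Fin n, i2.val = 2 := ⟨⟨2, by omega⟩, rfl⟩
  have h01 : i0 ≠ i1 := by
    intro h; rw [h] at hi0; omega
  have h02 : i0 ≠ i2 := by
    intro h; rw [h] at hi0; omega
  have h12 : i1 ≠ i2 := by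
    intro h; rw [h] at hi1; omega
  have hp0 : p ≠ 0 := hpr.1.ne_zero 0
  obtain ⟨g, hgK, hgp⟩ := hR n F Set.univ i0 i1 (Set.mem_univ _) (Set.mem_univ _) h01 K hX hY hZ
    p hp0 hpr.2.1 (fun i hi => absurd (Set.mem_univ i) hi)
  obtain ⟨hline1, hconj1⟩ := Cfsg.Agent.Lib.Helper21.Siegel.pkgConj n F p r hpr g
  rw [hgp] at hline1 hconj1
  obtain ⟨r₁, hr₁⟩ : ∃ r₁ : Vec n F, r₁ = mat g *ᵥ r := ⟨_, rfl⟩
  rw [← hr₁] at hline1 hconj1
  apply le_of_conjBy_le K (T p r) g hgK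
  rw [hconj1]
  -- now `T (E i0) r₁ ≤ K`
  have hB : B r₁ (E i0) = 0 := by
    have h := Q_add (E i0 : Vec n F) r₁
    rw [hline1.2.2.2, hline1.2.1, hline1.2.2.1] at h
    rw [B_comm]
    simpa using h.symm
  obtain ⟨x, hx⟩ : ∃ x : F, x = r₁ (Sum.inl i0) := ⟨_, rfl⟩
  obtain ⟨r₂, hr₂⟩ : ∃ r₂ : Vec n F, r₂ = r₁ - x • E i0 := ⟨_, rfl⟩
  have hr₂ne : r₂ ≠ 0 := by
    intro h0
    have hli := hline1.1
    rw [LinearIndependent.pair_iff] at hli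
    have h1 := hli (-x) 1 (by rw [← h0, hr₂]; module)
    exact one_ne_zero h1.2
  have hQr₂ : QF n F r₂ = 0 := by
    rw [hr₂, Q_sub, Q_smul, Q_E, hline1.2.2.1, B_smul_right, hB]
    ring
  have hsupp : ∀ i, i ∉ {i : Fin n | i ≠ i0} → r₂ (Sum.inl i) = 0 ∧ r₂ (Sum.inr i) = 0 := by
    intro i hi
    have hi' : i = i0 := by
      by_contra h
      exact hi h
    subst hi'
    constructor
    · have e : (E i : Vec n F) (Sum.inl i) = 1 := Pi.single_eq_same _ _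
      rw [hr₂, Pi.sub_apply, Pi.smul_apply, e, hx]
      simp
    · have e : (E i : Vec n F) (Sum.inr i) = 0 := Pi.single_eq_of_ne (by simp) _
      have e2 : r₁ (Sum.inr i) = 0 := (B_E r₁ i).symm.trans hB
      rw [hr₂, Pi.sub_apply, Pi.smul_apply, e, e2]
      simp
  -- the stabiliser of `e₀` in `K`
  obtain ⟨K', hK'⟩ : ∃ K' : Subgroup ↥(Iso n F),
      ∀ h : ↥(Iso n F), h ∈ K' ↔ (h ∈ K ∧ mat h *ᵥ (E i0 : Vec n F) = E i0) := by
    refine ⟨{ carrier := {h | h ∈ K ∧ mat h *ᵥ (E i0 : Vec n F) = E i0}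
              mul_mem' := ?_
              one_mem' := ?_
              inv_mem' := ?_ }, fun h => Iff.rfl⟩
    · rintro a b ⟨ha, ha'⟩ ⟨hb, hb'⟩
      exact ⟨K.mul_mem ha hb, by rw [mul_act, hb', ha']⟩
    · exact ⟨K.one_mem, one_act _⟩
    · rintro a ⟨ha, ha'⟩
      refine ⟨K.inv_mem ha, ?_⟩
      have h1 := inv_act a (E i0 : Vec n F)
      rw [ha'] at h1
      exact h1
  have hX' : HasX {i : Fin n | i ≠ i0} K' := by
    intro i j hi hj hij c σ hσ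
    rw [hK']
    refine ⟨hX i j (Set.mem_univ _) (Set.mem_univ _) hij c σ hσ, ?_⟩
    rw [hσ (E i0), B_E_Fv, if_neg (Ne.symm hj), B_E_E]
    simp
  have hY' : HasY {i : Fin n | i ≠ i0} K' := by
    intro i j hi hj hij c σ hσ
    rw [hK']
    refine ⟨hY i j (Set.mem_univ _) (Set.mem_univ _) hij c σ hσ, ?_⟩
    rw [hσ (E i0), B_E_E, B_E_E]
    simp
  have hZ' : HasZ {i : Fin n | i ≠ i0} K' := by
    intro i j hi hj hij c σ hσ
    rw [hK']
    refine ⟨hZ i j (Set.mem_univ _) (Set.mem_univ _) hij c σ hσ, ?_⟩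
    rw [hσ (E i0), B_E_Fv, if_neg (Ne.symm hj), B_E_Fv, if_neg (Ne.symm hi)]
    simp
  obtain ⟨g', hg'K', hg'⟩ := hR n F {i : Fin n | i ≠ i0} i1 i2 (Ne.symm h01) (Ne.symm h02) h12
    K' hX' hY' hZ' r₂ hr₂ne hQr₂ hsupp
  rw [hK'] at hg'K'
  obtain ⟨hg'K, hg'e⟩ := hg'K'
  have hg'r₁ : mat g' *ᵥ r₁ = E i1 + x • E i0 := by
    have e : r₁ = r₂ + x • E i0 := by rw [hr₂]; module
    rw [e, Matrix.mulVec_add, Matrix.mulVec_smul, hg', hg'e]
  obtain ⟨_, hconj2⟩ := Cfsg.Agent.Lib.Helper21.Siegel.pkgConj n F (E i0) r₁ hline1 g'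
  rw [hg'e, hg'r₁] at hconj2
  apply le_of_conjBy_le K (T (E i0) r₁) g' hg'K
  rw [hconj2]
  have hreb := Cfsg.Agent.Lib.Helper34.Siegel.pkgRebase n F (E i0) (E i1) (E i0)
    (E i1 + x • E i0) (isSingLine_E_E h01) ⟨1, 0, x, 1, by simp, by simp, by rw [one_smul, add_comm]⟩
  rw [hreb.2]
  intro σ hσ
  obtain ⟨c, hc⟩ := (Cfsg.Agent.Lib.Helper67.Siegel.pkgParam n F _ _ (isSingLine_E_E h01) σ).1 hσ
  exact hY i0 i1 (Set.mem_univ _) (Set.mem_univ _) h01 c σ hc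

end Cfsg.Agent.Lib.Helper32.OPG
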