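import Mathlib
import Cfsg.Agent.Lib.Helper32.OPG.Defs

/-!
# Project OPG (S2414): assembly

`pkgRed_of` ([RED] from [REDX] and [REDY]) and `main_of`: `PΩ⁺_{2m}(q)`, `m ≥ 4`, is generated by
two elements, from the packages of `Cfsg.Agent.Lib.Helper32.OPG.Defs`.
-/

set_option autoImplicit false
open scoped Matrix

namespace Cfsg.Agent.Lib.Helper32.OPG

open Cfsg.Agent.Lib.Helper31.Siegel Cfsg.Agent.Lib.Helper32.Siegel

universe u

/-- **[RED]** from [REDX] and [REDY]. -/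
theorem pkgRed_of (hX : PkgRedX.{u}) (hY : PkgRedY.{u}) : PkgRed.{u} := by
  intro n F _ S i₀ j₀ hi₀ hj₀ hij K hKX hKY hKZ p hp hQ hsupp
  obtain ⟨g₁, hg₁K, hx, hy⟩ := hX n F S i₀ j₀ hi₀ hj₀ hij K hKX hKY p hp hsupp
  obtain ⟨g₂, hg₂K, h2⟩ := hY n F S i₀ hi₀ K hKZ (mat g₁ *ᵥ p) (by rw [Q_act]; exact hQ) hx hy
  exact ⟨g₂ * g₁, K.mul_mem hg₂K hg₁K, by rw [mul_act]; exact h2⟩

/-- commuting elements of coprime orders lie in the subgroup generated by their product. -/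
theorem mem_of_coprime_orders {G : Type*} [Group G] (K : Subgroup G) (x y : G) (A B : ℕ)
    (hc : Nat.Coprime A B) (hxy : Commute x y) (hx : x ^ A = 1) (hy : y ^ B = 1)
    (h : x * y ∈ K) : x ∈ K ∧ y ∈ K := by
  have h1 : (x * y) ^ B = x ^ B := by rw [hxy.mul_pow, hy, mul_one]
  have h2 : (x * y) ^ A = y ^ A := by rw [hxy.mul_pow, hx, one_mul]
  have hxB : x ^ B ∈ K := h1 ▸ K.pow_mem h B
  have hyA : y ^ A ∈ K := h2 ▸ K.pow_mem h A
  have e : (1 : ℤ) = A * Nat.gcdA A B + B * Nat.gcdB A B := by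
    have h3 := Nat.gcd_eq_gcd_ab A B
    rw [hc.gcd_eq_one] at h3
    exact_mod_cast h3
  constructor
  · have e1 : x = (x ^ B) ^ (Nat.gcdB A B) := by
      rw [← zpow_natCast, ← zpow_mul]
      conv_lhs => rw [← zpow_one x, e, zpow_add, zpow_mul, zpow_natCast, hx, one_zpow, one_mul]
    rw [e1]
    exact K.zpow_mem hxB _
  · have e1 : y = (y ^ A) ^ (Nat.gcdA A B) := by
      rw [← zpow_natCast, ← zpow_mul]
      conv_lhs =>
        rw [← zpow_one y, e, zpow_add, zpow_mul (y) (B : ℤ), zpow_natCast, hy, one_zpow, mul_one]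
    rw [e1]
    exact K.zpow_mem hyA _

/-- **OPG main theorem**: `PΩ⁺_{2m}(q)`, `m ≥ 4`, is generated by two elements. -/
theorem main_of (hGens : PkgGens.{u}) (hFix : PkgFix.{u}) (hXL : PkgXL.{u})
    (hComm : PkgCommU.{u}) (hUOm : PkgUOm.{u}) (hYZ : PkgYZ.{u}) (hSpread : PkgSpread.{u})
    (hLine : PkgLine.{u}) (hBridge : PkgBridge.{u})
    (F : Type u) [Field F] [Fintype F] (m : ℕ) (hm : 4 ≤ m) :
    ∃ a b : Cfsg.POmega F (Cfsg.quadFormPlus m F),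
      Subgroup.closure ({a, b} : Set (Cfsg.POmega F (Cfsg.quadFormPlus m F))) = ⊤ := by
  obtain ⟨N, rfl⟩ : ∃ N, m = N + 1 := ⟨m - 1, by omega⟩
  have hN : 3 ≤ N := by omega
  obtain ⟨g₁, g₂, M, A, Bn, hcop, hgen, hg₁A, hMB, hM00, hg₁⟩ := hGens F N hN
  obtain ⟨ia, hia⟩ : ∃ ia : Fin (N + 1), ia.val = 2 := ⟨⟨2, by omega⟩, rfl⟩
  obtain ⟨ib, hib⟩ : ∃ ib : Fin (N + 1), ib.val = 3 := ⟨⟨3, by omega⟩, rfl⟩
  obtain ⟨i0, hi0⟩ : ∃ i0 : Fin (N + 1), i0.val = 0 := ⟨⟨0, by omega⟩, rfl⟩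
  have hab : ia ≠ ib := by
    intro h; rw [h] at hia; omega
  have h0a : i0 ≠ ia := by
    intro h; rw [h] at hi0; omega
  have h0b : i0 ≠ ib := by
    intro h; rw [h] at hi0; omega
  obtain ⟨u, hu⟩ : ∃ u : ↥(Iso (N + 1) F), u = sl2Hom (hyp4 (F := F) hab) M := ⟨_, rfl⟩
  obtain ⟨x, hx⟩ : ∃ x : ↥(Iso (N + 1) F), x = L (N + 1) F g₁ := ⟨_, rfl⟩
  have hfa := hFix (N + 1) F g₁ ia (hg₁ ia (by omega)).1 (hg₁ ia (by omega)).2
  have hfb := hFix (N + 1) F g₁ ib (hg₁ ib (by omega)).1 (hg₁ ib (by omega)).2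
  have hcomm : x * u = u * x := by
    rw [hx, hu]
    exact hComm (N + 1) F _ _ _ _ (hyp4 hab) (L (N + 1) F g₁) hfa.1 hfb.1 hfa.2 hfb.2 M
  have hxA : x ^ A = 1 := by rw [hx, ← map_pow, hg₁A, map_one]
  have huB : u ^ Bn = 1 := by rw [hu, ← map_pow, hMB, map_one]
  obtain ⟨K, hK⟩ : ∃ K : Subgroup ↥(Iso (N + 1) F),
      K = Subgroup.closure {x * u, L (N + 1) F g₂} := ⟨_, rfl⟩
  have haK : x * u ∈ K := by rw [hK]; exact Subgroup.subset_closure (by simp)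
  have hbK : L (N + 1) F g₂ ∈ K := by rw [hK]; exact Subgroup.subset_closure (by simp)
  obtain ⟨hxK, huK⟩ := mem_of_coprime_orders K x u A Bn hcop hcomm hxA huB haK
  have hLK : ∀ g, L (N + 1) F g ∈ K := by
    have h1 : Subgroup.closure ({g₁, g₂} : Set (Matrix.SpecialLinearGroup (Fin (N + 1)) F)) ≤
        K.comap (L (N + 1) F) := by
      rw [Subgroup.closure_le]
      rintro y (rfl | rfl)
      · show L (N + 1) F y ∈ K
        rw [← hx]; exact hxK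
      · exact hbK
    intro g
    have h2 : g ∈ K.comap (L (N + 1) F) := h1 (by rw [hgen]; exact Subgroup.mem_top g)
    exact h2
  have hX : HasX Set.univ K := by
    intro i j _ _ hij c σ hσ
    rw [isSiegel_ext hσ (hXL (N + 1) F i j hij c)]
    exact hLK _
  obtain ⟨hY1, hZ1⟩ := hYZ (N + 1) F ia ib hab M hM00 K hX (hu ▸ huK) i0 h0a h0b
  have hY : HasY Set.univ K := (hSpread (N + 1) F K hX i0 ib h0b).1 hY1
  have hZ : HasZ Set.univ K := (hSpread (N + 1) F K hX ib i0 (Ne.symm h0b)).2 hZ1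
  have hΩ : Cfsg.Omega F (Cfsg.quadFormPlus (N + 1) F) ≤ K :=
    hBridge (N + 1) F (by omega) K (hLine (N + 1) F (by omega) K hX hY hZ)
  have hLΩ : ∀ g, L (N + 1) F g ∈ Cfsg.Omega F (Cfsg.quadFormPlus (N + 1) F) := by
    intro g
    refine Cfsg.Agent.Lib.Helper14.leviIsom_mem_omega_of_det (fun h => by omega) _ ?_
    apply Units.ext
    simp
  have huΩ : u ∈ Cfsg.Omega F (Cfsg.quadFormPlus (N + 1) F) := by
    rw [hu]
    exact hUOm (N + 1) F (by omega) _ _ _ _ (hyp4 hab) M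
  have haΩ : x * u ∈ Cfsg.Omega F (Cfsg.quadFormPlus (N + 1) F) :=
    Subgroup.mul_mem _ (hx ▸ hLΩ g₁) huΩ
  have hbΩ := hLΩ g₂
  obtain ⟨A', hA'⟩ : ∃ A' : ↥(Cfsg.Omega F (Cfsg.quadFormPlus (N + 1) F)),
      A' = ⟨x * u, haΩ⟩ := ⟨_, rfl⟩
  obtain ⟨B', hB'⟩ : ∃ B' : ↥(Cfsg.Omega F (Cfsg.quadFormPlus (N + 1) F)),
      B' = ⟨L (N + 1) F g₂, hbΩ⟩ := ⟨_, rfl⟩
  have hmap : (Subgroup.closure ({A', B'} :
      Set ↥(Cfsg.Omega F (Cfsg.quadFormPlus (N + 1) F)))).map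
        (Cfsg.Omega F (Cfsg.quadFormPlus (N + 1) F)).subtype = K := by
    rw [MonoidHom.map_closure, Set.image_pair, hK, hA', hB']
    rfl
  have htop : Subgroup.closure ({A', B'} :
      Set ↥(Cfsg.Omega F (Cfsg.quadFormPlus (N + 1) F))) = ⊤ := by
    rw [eq_top_iff]
    intro y _
    have hy : (y : ↥(Iso (N + 1) F)) ∈ K := hΩ y.2
    rw [← hmap] at hy
    obtain ⟨z, hz, hzy⟩ := hy
    have e : z = y := Subtype.ext hzy
    rwa [← e]
  refine ⟨QuotientGroup.mk A', QuotientGroup.mk B', ?_⟩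
  have hmap2 : Subgroup.map (QuotientGroup.mk' (Subgroup.center
        ↥(Cfsg.Omega F (Cfsg.quadFormPlus (N + 1) F))))
      (Subgroup.closure ({A', B'} : Set ↥(Cfsg.Omega F (Cfsg.quadFormPlus (N + 1) F))))
      = Subgroup.closure ({QuotientGroup.mk A', QuotientGroup.mk B'} :
          Set (Cfsg.POmega F (Cfsg.quadFormPlus (N + 1) F))) := by
    rw [MonoidHom.map_closure, Set.image_pair]
    rfl
  rw [← hmap2, htop, Subgroup.map_top_of_surjective _ (QuotientGroup.mk'_surjective _)]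

end Cfsg.Agent.Lib.Helper32.OPG
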