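import Mathlib
import Cfsg.Agent.Lib.Helper32.OPG.Main
import Cfsg.Agent.Lib.Helper32.OPG.Line
import Cfsg.Agent.Lib.Helper38.OPG.Fix
import Cfsg.Agent.Lib.Helper38.OPG.XL
import Cfsg.Agent.Lib.Helper38.OPG.CommU
import Cfsg.Agent.Lib.Helper38.OPG.YZ
import Cfsg.Agent.Lib.Helper42.OPG.RedX
import Cfsg.Agent.Lib.Helper42.OPG.RedY
import Cfsg.Agent.Lib.Helper46.OPG.Bridge
import Cfsg.Agent.Lib.Helper46.OPG.UOm
import Cfsg.Agent.Lib.Helper62.OPG.Spread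

/-!
# Project OPG (S2414): everything except [GENS]
-/

set_option autoImplicit false

namespace Cfsg.Agent.Lib.Helper32.OPG

universe u

/-- `PΩ⁺_{2m}(q)`, `m ≥ 4`, is generated by two elements, given the generators package. -/
theorem final_of (hGens : PkgGens.{u}) (F : Type u) [Field F] [Fintype F] (m : ℕ) (hm : 4 ≤ m) :
    ∃ a b : Cfsg.POmega F (Cfsg.quadFormPlus m F),
      Subgroup.closure ({a, b} : Set (Cfsg.POmega F (Cfsg.quadFormPlus m F))) = ⊤ :=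
  main_of hGens Cfsg.Agent.Lib.Helper38.OPG.pkgFix Cfsg.Agent.Lib.Helper38.OPG.pkgXL
    Cfsg.Agent.Lib.Helper38.OPG.pkgCommU Cfsg.Agent.Lib.Helper46.OPG.pkgUOm
    Cfsg.Agent.Lib.Helper38.OPG.pkgYZ Cfsg.Agent.Lib.Helper62.OPG.pkgSpread
    (pkgLine_of (pkgRed_of Cfsg.Agent.Lib.Helper42.OPG.pkgRedX Cfsg.Agent.Lib.Helper42.OPG.pkgRedY))
    Cfsg.Agent.Lib.Helper46.OPG.pkgBridge F m hm

end Cfsg.Agent.Lib.Helper32.OPG
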