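import Mathlib
import Cfsg.Agent.Lib.Helper32.OPG.Defs
import Cfsg.Agent.Lib.Helper67.Siegel.Param
import Cfsg.Agent.Lib.Helper5.SLGen

/-!
# Project OPG (S2414), package [UOM]

The `SL₂` of a hyperbolic quadruple lies in `Ω` (given that Siegel transvection groups do).
-/

set_option autoImplicit false
open scoped Matrix

namespace Cfsg.Agent.Lib.Helper32.OPG

open Cfsg.Agent.Lib.Helper31.Siegel Cfsg.Agent.Lib.Helper32.Siegel

universe u

/-- **[UOM]** (from [SIEGOM]). -/
theorem pkgUOm_of (hS : PkgSiegOm.{u}) : PkgUOm.{u} := by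
  intro n F _ _ hn p r s t h M
  have hpr : IsSingLine p r := isSingLine_of s t h.ps h.rs h.rt h.Qp h.Qr h.pr
  have hst : IsSingLine s t := isSingLine_of p r h.sp h.tp h.tr h.Qs h.Qt h.st
  have htop : (Cfsg.Omega F (Cfsg.quadFormPlus n F)).comap (sl2Hom h) = ⊤ := by
    apply Cfsg.Agent.Lib.Helper5.eq_top_of_transvection_mem
    intro i j hij c
    show sl2Hom h (Matrix.SpecialLinearGroup.transvection hij c) ∈
      Cfsg.Omega F (Cfsg.quadFormPlus n F)
    have e00 : ∀ (k l : Fin 2), (Matrix.SpecialLinearGroup.transvection hij c :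
        Matrix (Fin 2) (Fin 2) F) k l =
        (if k = l then 1 else 0) + (if i = k ∧ j = l then c else 0) := by
      intro k l
      rw [Matrix.SpecialLinearGroup.transvection_coe]
      exact Cfsg.Agent.Lib.Helper5.transvection_apply_entry i j c k l
    fin_cases i <;> fin_cases j
    · exact absurd rfl hij
    · apply hS n F hn p r hpr
      rw [Cfsg.Agent.Lib.Helper67.Siegel.pkgParam n F p r hpr]
      refine ⟨c, ?_⟩
      intro v
      rw [sl2Hom_act, sl2Lin_apply, e00, e00, e00, e00]
      simp
      module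
    · apply hS n F hn s t hst
      rw [Cfsg.Agent.Lib.Helper67.Siegel.pkgParam n F s t hst]
      refine ⟨-c, ?_⟩
      intro v
      rw [sl2Hom_act, sl2Lin_apply, e00, e00, e00, e00]
      simp
      module
    · exact absurd rfl hij
  have hM : M ∈ (Cfsg.Omega F (Cfsg.quadFormPlus n F)).comap (sl2Hom h) := by
    rw [htop]; exact Subgroup.mem_top M
  exact hM

end Cfsg.Agent.Lib.Helper32.OPG
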